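import Mathlib
import Cfsg.Agent.Lib.Helper19.DG33.RBPT

/-!
# DG33 (S3670), sub-package [RT]: the action of the torus on `Z` and on `P / Z`
-/

set_option autoImplicit false

namespace Cfsg.Agent.Lib.Helper19.DG33

open Matrix Cfsg.Agent.Lib.Helper45 Cfsg.Agent.Lib.Helper86.Un Cfsg.Agent.Lib.Helper86.SU3
  Cfsg.Agent.Lib.Helper86.SL3 Cfsg.Agent.Lib.Helper14.DG33

universe u

section zeta

variable {F : Type u} [Field F] [Fintype F]

theorem zeta4 (ζ : Fˣ) (hζ : orderOf ζ = 8) : (ζ : F) ^ 4 = -1 := by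
  have h8 : ζ ^ 8 = 1 := by rw [← hζ]; exact pow_orderOf_eq_one ζ
  have h8' : (ζ : F) ^ 8 = 1 := by rw [← Units.val_pow_eq_pow_val, h8, Units.val_one]
  have h4 : (ζ : F) ^ 4 ≠ 1 := by
    intro h
    have h' : ζ ^ 4 = 1 := Units.ext (by rw [Units.val_pow_eq_pow_val, h, Units.val_one])
    have hd := orderOf_dvd_of_pow_eq_one h'
    rw [hζ] at hd
    omega
  have hm : ((ζ : F) ^ 4 - 1) * ((ζ : F) ^ 4 + 1) = 0 := by linear_combination h8'
  rcases mul_eq_zero.1 hm with h | h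
  · exact absurd (sub_eq_zero.1 h) h4
  · exact eq_neg_of_add_eq_zero_left h

/-- the matrix of an element of `Zm` -/
theorem Zm_ents (hF : Fintype.card F = 3 ^ 2) {z : UJ 3 (sigmaQ hF)} (hz : z ∈ Zm hF) :
    mat z 0 0 = 1 ∧ mat z 0 1 = 0 ∧ mat z 1 0 = 0 ∧ mat z 1 1 = 1 ∧ mat z 1 2 = 0 ∧
      mat z 2 0 = 0 ∧ mat z 2 1 = 0 ∧ mat z 2 2 = 1 ∧ sigmaQ hF (mat z 0 2) = - mat z 0 2 := by
  obtain ⟨hP, z01, z12⟩ := (mem_Zm hF z).1 hz
  obtain ⟨hB, z00, z11, z22⟩ := (mem_Pm hF z).1 hP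
  obtain ⟨z10, z20, z21⟩ := (mem_Bm hF z).1 hB
  refine ⟨z00, z01, z10, z11, z12, z20, z21, z22, ?_⟩
  have e := unit_ent z 0 2
  have r : (0 : Fin 3).rev = 2 := rfl
  rw [r, z22, z12, map_one, map_zero, one_mul, zero_mul, add_zero, mul_one,
    if_neg (by decide)] at e
  linear_combination e

end zeta

/-- [RT] -/
theorem pkgRT : PkgRT.{u} := by
  intro F _ _ hF ζ hζ
  have hz4 := zeta4 ζ hζ
  have hz0 : (ζ : F) ≠ 0 := ζ.ne_zero
  constructor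
  · intro z hz
    obtain ⟨z00, z01, z10, z11, z12, z20, z21, z22, zc⟩ := Zm_ents hF hz
    rw [mul_inv_eq_iff_eq_mul]
    apply mat_injective
    rw [mat_mul', mat_mul', mat_inv', mat_tm]
    have hs : sigmaQ hF (ζ : F) = (ζ : F) ^ 3 := rfl
    ext i j
    simp only [Matrix.mul_apply, Fin.sum_univ_three, adj_apply]
    unfold T3 D3
    fin_cases i <;> fin_cases j <;>
      simp [z00, z01, z10, z11, z12, z20, z21, z22, zc, hs]
    · have h3 : ((ζ : F) ^ 3)⁻¹ = -(ζ : F) :=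
        inv_eq_of_mul_eq_one_right (by linear_combination -hz4)
      rw [h3]
      ring
  · intro k hk0 hk8 p hp hc
    obtain ⟨hpB, p00, p11, p22⟩ := (mem_Pm hF p).1 hp
    obtain ⟨p10, p20, p21⟩ := (mem_Bm hF p).1 hpB
    generalize hcdef : tm hF ζ ^ k * p * (tm hF ζ ^ k)⁻¹ * p⁻¹ = c at hc
    obtain ⟨hcP, c01, c12⟩ := (mem_Zm hF c).1 hc
    obtain ⟨hcB, c00, c11, c22⟩ := (mem_Pm hF c).1 hcP
    have key : c * p * tm hF (ζ ^ k) = tm hF (ζ ^ k) * p := by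
      rw [← hcdef, ← tm_pow]
      group
    have e : mat (c * p * tm hF (ζ ^ k)) 0 1 = mat (tm hF (ζ ^ k) * p) 0 1 := by rw [key]
    have hS01 : T3 (sigmaQ hF) ((ζ ^ k : Fˣ) : F) 0 1 = 0 := rfl
    have hS21 : T3 (sigmaQ hF) ((ζ ^ k : Fˣ) : F) 2 1 = 0 := rfl
    have hS02 : T3 (sigmaQ hF) ((ζ ^ k : Fˣ) : F) 0 2 = 0 := rfl
    have hS00 : T3 (sigmaQ hF) ((ζ ^ k : Fˣ) : F) 0 0 = ((ζ ^ k : Fˣ) : F) := rfl
    have hS11 : T3 (sigmaQ hF) ((ζ ^ k : Fˣ) : F) 1 1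
        = ((ζ ^ k : Fˣ) : F) ^ 3 * ((ζ ^ k : Fˣ) : F)⁻¹ := rfl
    rw [mat_mul', mat_mul', mat_mul', mat_tm] at e
    simp only [Matrix.mul_apply, Fin.sum_univ_three] at e
    rw [hS01, hS21, hS02, hS00, hS11, c00, c01, p11, p21] at e
    have hη0 : ((ζ ^ k : Fˣ) : F) ≠ 0 := (ζ ^ k).ne_zero
    have hη1 : ((ζ ^ k : Fˣ) : F) ≠ 1 := by
      intro h
      have h' : ζ ^ k = 1 := Units.ext (by rw [h, Units.val_one])
      have hd := orderOf_dvd_of_pow_eq_one h'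
      rw [hζ] at hd
      have := Nat.le_of_dvd hk0 hd
      omega
    have h2 : mat p 0 1 * (((ζ ^ k : Fˣ) : F) * (((ζ ^ k : Fˣ) : F) - 1)) = 0 := by
      have e' : mat p 0 1 * (((ζ ^ k : Fˣ) : F) ^ 3 * ((ζ ^ k : Fˣ) : F)⁻¹)
          = ((ζ ^ k : Fˣ) : F) * mat p 0 1 := by linear_combination e
      have e3 : ((ζ ^ k : Fˣ) : F) ^ 3 * ((ζ ^ k : Fˣ) : F)⁻¹ = ((ζ ^ k : Fˣ) : F) ^ 2 := by
        field_simp
      rw [e3] at e'
      linear_combination e'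
    have p01 : mat p 0 1 = 0 := by
      rcases mul_eq_zero.1 h2 with h | h
      · exact h
      · rcases mul_eq_zero.1 h with h | h
        · exact absurd h hη0
        · exact absurd (sub_eq_zero.1 h) hη1
    have e2 := unit_ent p 0 1
    have r : (0 : Fin 3).rev = 2 := rfl
    rw [r, p22, p01, p11, p21, map_one, one_mul, mul_zero, add_zero, zero_add, mul_one,
      if_neg (by decide)] at e2
    have p12 : mat p 1 2 = 0 := (map_eq_zero (sigmaQ hF)).1 e2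
    exact (mem_Zm hF p).2 ⟨hp, p01, p12⟩

end Cfsg.Agent.Lib.Helper19.DG33
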