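import Mathlib
import Cfsg.Agent.Lib.Helper19.DG33.Raw
import Cfsg.Agent.Lib.Helper19.DG33.RBPT
import Cfsg.Agent.Lib.Helper19.DG33.RPerf
import Cfsg.Agent.Lib.Helper77.DG33.RBruhat
import Cfsg.Agent.Lib.Helper38.DG33.RInter
import Cfsg.Agent.Lib.Helper62.DG33.RNorm
import Cfsg.Agent.Lib.Helper62.DG33.RT
import Cfsg.Agent.Lib.Helper10.DG33.RPZ
import Cfsg.Agent.Lib.Helper84.DG33.Iso

/-!
# DG33 (S3670), package [RAW]: the raw Borel datum of `SU(3,3)` in the antidiagonal model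
-/

set_option autoImplicit false

namespace Cfsg.Agent.Lib.Helper19.DG33

universe u

/-- [RAW] -/
theorem pkgRaw : Cfsg.Agent.Lib.Helper14.DG33.PkgRaw.{u} :=
  pkgRaw_of Cfsg.Agent.Lib.Helper77.DG33.pkgRBruhat Cfsg.Agent.Lib.Helper38.DG33.pkgRInter
    Cfsg.Agent.Lib.Helper62.DG33.pkgRNorm Cfsg.Agent.Lib.Helper10.DG33.pkgRPZ
    Cfsg.Agent.Lib.Helper62.DG33.pkgRT pkgRBPT pkgRPerf Cfsg.Agent.Lib.Helper84.DG33.pkgIso

end Cfsg.Agent.Lib.Helper19.DG33
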